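import Cfsg.Agent.Constrained.HallHigman
import Cfsg.Agent.Constrained.UpperSeries
import Cfsg.Agent.Transfer.SmallElements
import Cfsg.Agent.Solvable.SchurZassenhaus
import Mathlib.GroupTheory.Nilpotent

/-!
The Gaschütz–Yen theorem: a finite `p`-solvable group, `p` odd, whose automorphism group is
transitive on the subgroups of order `p` has `p`-length at most one.
-/

set_option autoImplicit false

namespace CfsgLib.GaschuetzYen

open Cfsg CfsgLib.Constrained

variable {G : Type*} [Group G] {p : ℕ}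

/-- An element of prime order fixed by a transitive group of automorphisms' invariant subgroup:
every element of order dividing `p` lies in each invariant subgroup with one such element. -/
theorem mem_of_invariant [Fact p.Prime]
    (htrans : ∀ U V : Subgroup G, Nat.card U = p → Nat.card V = p →
      ∃ a : MulAut G, U.map a.toMonoidHom = V)
    (W : Subgroup G) (hW : ∀ a : MulAut G, W.map a.toMonoidHom ≤ W)
    (u : G) (hu : orderOf u = p) (huW : u ∈ W) : ∀ x : G, x ^ p = 1 → x ∈ W := by
  intro x hx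
  by_cases hx1 : x = 1
  · exact hx1 ▸ one_mem W
  obtain ⟨a, ha⟩ := htrans (Subgroup.zpowers u) (Subgroup.zpowers x)
    (by rw [Nat.card_zpowers, hu]) (by rw [Nat.card_zpowers, orderOf_eq_prime hx hx1])
  have hxm : x ∈ (Subgroup.zpowers u).map a.toMonoidHom := ha.symm ▸ Subgroup.mem_zpowers x
  exact hW a (Subgroup.map_mono (Subgroup.zpowers_le.2 huW) hxm)

/-- A subgroup defined as a centralizer of an invariant subgroup is invariant. -/
theorem map_centralizer_le {L : Subgroup G} (a : MulAut G) (hL : L.map a.toMonoidHom = L) :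
    (Subgroup.centralizer (L : Set G)).map a.toMonoidHom ≤ Subgroup.centralizer (L : Set G) := by
  rintro _ ⟨c, hc, rfl⟩
  rw [Subgroup.mem_centralizer_iff]
  intro l hl
  obtain ⟨l', hl', rfl⟩ := (hL.symm ▸ hl : l ∈ L.map a.toMonoidHom)
  rw [MulEquiv.coe_toMonoidHom, ← map_mul, ← map_mul]
  exact congrArg a (Subgroup.mem_centralizer_iff.1 hc l' hl')

theorem map_conj_of_normal (Q : Subgroup G) [Q.Normal] (g : G) :
    Q.map (MulAut.conj g).toMonoidHom = Q := by
  refine le_antisymm ?_ fun q hq => ⟨g⁻¹ * q * g, ?_, ?_⟩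
  · rintro _ ⟨q, hq, rfl⟩
    exact Subgroup.Normal.conj_mem inferInstance q hq g
  · simpa using Subgroup.Normal.conj_mem inferInstance q hq g⁻¹
  · show g * (g⁻¹ * q * g) * g⁻¹ = q
    group

/-- Frattini argument for a complement: `G = Q N_G(K)`. -/
theorem exists_mul_mem_normalizer_complement [Finite G] (Q L K : Subgroup G) [Q.Normal] [L.Normal]
    (hsol : Group.IsSolvable Q) (hK : K ⊔ Q = L) (hcop : (Nat.card K).Coprime (Nat.card Q)) (g : G) :
    ∃ q ∈ Q, q * g ∈ Subgroup.normalizer (K : Set G) := by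
  set K' := K.map (MulAut.conj g).toMonoidHom with hK'
  have hsup : K' ⊔ Q = L := by
    have h1 : Q.map (MulAut.conj g).toMonoidHom = Q := map_conj_of_normal Q g
    have h2 : L.map (MulAut.conj g).toMonoidHom = L := map_conj_of_normal L g
    rw [hK', ← h1, ← Subgroup.map_sup, hK, h2]
  have hcard : Nat.card K' = Nat.card K := card_map_of_injective _ (MulAut.conj g).injective K
  obtain ⟨n, hn, hnK⟩ := CfsgLib.Solvable.exists_conj_of_sup_eq Q K' K (hsup.trans hK.symm)
    (by rw [hcard]; exact hcop) hcop (Or.inl hsol)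
  refine ⟨n, hn, ?_⟩
  rw [Subgroup.mem_normalizer_iff_map_conj_eq]
  have e : ((MulAut.conj (n * g) : MulAut G) : G →* G) =
      (MulAut.conj n).toMonoidHom.comp (MulAut.conj g).toMonoidHom := by
    ext x; simp [mul_assoc]
  rw [e, ← Subgroup.map_map, ← hK']
  exact hnK

variable [Finite G] [hp : Fact p.Prime]

/-- The core of the argument: trivial `p'`-core forces a normal Sylow `p`-subgroup. -/
theorem not_dvd_index_pCore (hp2 : p ≠ 2) (hdvd : p ∣ Nat.card G) (hG : IsPSolvable p G)
    (hO : pPrimeCore p G = ⊥)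
    (htrans : ∀ U V : Subgroup G, Nat.card U = p → Nat.card V = p →
      ∃ a : MulAut G, U.map a.toMonoidHom = V) :
    ¬ p ∣ (pCore p G).index := by
  intro hidx
  set Q := pCore p G with hQdef
  have hQp : IsPGroup p Q := isPGroup_pCore
  haveI : Nontrivial G := Finite.one_lt_card_iff_nontrivial.1
    (lt_of_lt_of_le hp.out.one_lt (Nat.le_of_dvd Nat.card_pos hdvd))
  have hQne : Q ≠ ⊥ := (IsPSolvable.core_ne_bot hG).resolve_right (not_not.2 hO)
  have hQa : ∀ a : MulAut G, Q.map a.toMonoidHom = Q := fun a =>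
    Subgroup.characteristic_iff_map_eq.1 inferInstance a
  -- all elements of order `p` are central in `Q`
  have hsmall : ∀ x : G, x ^ p = 1 → x ∈ Q ⊓ Subgroup.centralizer (Q : Set G) := by
    haveI : Nontrivial Q := (Subgroup.nontrivial_iff_ne_bot _).2 hQne
    haveI := hQp.center_nontrivial
    obtain ⟨k, hk0, hk⟩ := (hQp.to_subgroup (Subgroup.center Q)).nontrivial_iff_card.1 inferInstance
    obtain ⟨u, hu⟩ := exists_prime_orderOf_dvd_card' (G := Subgroup.center Q) p
      (hk ▸ dvd_pow_self p hk0.ne')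
    refine mem_of_invariant htrans _ (fun a => ?_) ((u : Q) : G)
      (by rw [Subgroup.orderOf_coe, Subgroup.orderOf_coe, hu]) ⟨(u : Q).2, ?_⟩
    · exact (Subgroup.map_inf_le _ _ _).trans (inf_le_inf (hQa a).le (map_centralizer_le a (hQa a)))
    · refine Subgroup.mem_centralizer_iff.2 fun q hq => ?_
      exact congrArg Subtype.val (Subgroup.mem_center_iff.1 u.2 ⟨q, hq⟩)
  -- their centralizer is `Q`
  have hC : ∀ g : G, (∀ x : G, x ^ p = 1 → g * x = x * g) → g ∈ Q := by
    let C : Subgroup G := Subgroup.centralizer {x : G | x ^ p = 1}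
    haveI : C.Normal := ⟨fun c hc g => Subgroup.mem_centralizer_iff.2 fun x hx => by
      have h := Subgroup.mem_centralizer_iff.1 hc (g⁻¹ * x * g)
        (by
          show (g⁻¹ * x * g) ^ p = 1
          have : (g⁻¹ * x * g) ^ p = g⁻¹ * x ^ p * g := by
            simpa using (conj_pow (i := p) (a := g⁻¹) (b := x))
          rw [this, show x ^ p = 1 from hx]
          group)
      calc x * (g * c * g⁻¹) = g * (g⁻¹ * x * g * c) * g⁻¹ := by group
        _ = g * (c * (g⁻¹ * x * g)) * g⁻¹ := by rw [h]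
        _ = g * c * g⁻¹ * x := by group⟩
    have hCp : IsPGroup p C := by
      by_contra hne
      obtain ⟨r, hr, hrd, hrp⟩ : ∃ r : ℕ, r.Prime ∧ r ∣ Nat.card C ∧ r ≠ p := by
        by_contra hall
        simp only [not_exists, not_and, not_not] at hall
        exact hne (IsPGroup.of_card (n := (Nat.card C).primeFactorsList.length)
          (Nat.eq_prime_pow_of_unique_prime_dvd Nat.card_pos.ne' fun hd hdd => hall _ hd hdd))
      haveI : Fact r.Prime := ⟨hr⟩
      obtain ⟨c, hc⟩ := exists_prime_orderOf_dvd_card' r hrd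
      have hcop : (orderOf (c : G)).Coprime p := by
        rw [Subgroup.orderOf_coe, hc]; exact (Nat.coprime_primes hr hp.out).2 hrp
      have hcQ : (c : G) ∈ Subgroup.centralizer (Q : Set G) := by
        refine CfsgLib.Transfer.mem_centralizer_of_fixes_small hQp ?_ hcop fun a _ ha => ?_
        · rw [Subgroup.normalizer_eq_top (H := Q)]; exact Subgroup.mem_top _
        · rcases ha with ha | ⟨h2, -⟩
          · exact (Subgroup.mem_centralizer_iff.1 c.2 a ha).symm
          · exact absurd h2 hp2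
      obtain ⟨j, hj⟩ := IsPGroup.iff_orderOf.1 hQp ⟨(c : G), centralizer_pCore_le hG hO hcQ⟩
      rw [Subgroup.orderOf_mk, Subgroup.orderOf_coe, hc] at hj
      exact hrp ((Nat.prime_dvd_prime_iff_eq hr hp.out).1 (hr.dvd_of_dvd_pow (dvd_of_eq hj)))
    intro g hg
    exact le_pCore (inferInstance : C.Normal) hCp
      (Subgroup.mem_centralizer_iff.2 fun x hx => (hg x hx).symm)
  -- the next term of the upper series and a complement in it
  set N := pPrimeCore p (G ⧸ Q) with hN
  set L := N.comap (QuotientGroup.mk' Q) with hL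
  have hQL : Q ≤ L := fun q hq => by
    rw [hL, Subgroup.mem_comap, QuotientGroup.mk'_apply, (QuotientGroup.eq_one_iff q).2 hq]
    exact one_mem _
  haveI : Nontrivial (G ⧸ Q) := QuotientGroup.nontrivial_iff.2 fun h => by
    rw [h, Subgroup.index_top] at hidx
    exact hp.out.not_dvd_one hidx
  have hNne : N ≠ ⊥ := (IsPSolvable.core_ne_bot (IsPSolvable.quotient hG Q)).resolve_left
    (not_not.2 pCore_quotient_pCore)
  have hLQ : ¬ L ≤ Q := fun h => hNne (eq_bot_iff.2 fun y hy => by
    obtain ⟨g, rfl⟩ := QuotientGroup.mk_surjective y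
    exact Subgroup.mem_bot.2 ((QuotientGroup.eq_one_iff g).2 (h hy)))
  have hrel : ¬ p ∣ Q.relIndex L := by
    rw [relIndex_eq_card_map, hL,
      Subgroup.map_comap_eq_self_of_surjective (QuotientGroup.mk'_surjective Q)]
    exact pPrimeCore_not_dvd
  have hLa : ∀ a : MulAut G, L.map a.toMonoidHom = L := by
    intro a
    let b : (G ⧸ Q) ≃* (G ⧸ Q) := QuotientGroup.congr Q Q a (hQa a)
    have hb : N.map b.toMonoidHom = N := pPrimeCore_map b p
    have hle : ∀ a : MulAut G, ∀ b : (G ⧸ Q) ≃* (G ⧸ Q), (∀ g : G, b g = ((a g : G) : G ⧸ Q)) →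
        N.map b.toMonoidHom = N → L.map a.toMonoidHom ≤ L := by
      rintro a b hab hb _ ⟨l, hl, rfl⟩
      show ((a l : G) : G ⧸ Q) ∈ N
      rw [← hab, ← hb]
      exact Subgroup.mem_map_of_mem _ hl
    refine le_antisymm (hle a b (fun g => rfl) hb) ?_
    intro l hl
    refine ⟨a.symm l, ?_, a.apply_symm_apply l⟩
    exact hle a.symm (QuotientGroup.congr Q Q a.symm (hQa a.symm)) (fun g => rfl)
      (pPrimeCore_map _ p) ⟨l, hl, rfl⟩
  have hcopL : (Nat.card (Q.subgroupOf L)).Coprime (Q.subgroupOf L).index := by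
    obtain ⟨n, hn⟩ := IsPGroup.iff_card.1 hQp
    rw [Nat.card_congr (Subgroup.subgroupOfEquivOfLe hQL).toEquiv, hn]
    exact (hp.out.coprime_iff_not_dvd.2 hrel).pow_left n
  obtain ⟨K₀, hK₀⟩ := Subgroup.exists_right_complement'_of_coprime hcopL
  set K := K₀.map L.subtype with hKdef
  have hKQ : K ⊔ Q = L := by
    have h1 := congrArg (Subgroup.map L.subtype) hK₀.sup_eq_top
    rw [Subgroup.map_sup, Subgroup.map_subgroupOf_eq_of_le hQL, ← MonoidHom.range_eq_map,
      L.range_subtype] at h1
    rw [sup_comm]; exact h1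
  have hKcop : (Nat.card K).Coprime (Nat.card Q) := by
    rw [hKdef, card_map_of_injective _ L.subtype_injective, ← hK₀.symm.index_eq_card,
      ← Nat.card_congr (Subgroup.subgroupOfEquivOfLe hQL).toEquiv]
    exact hcopL.symm
  have hfr := exists_mul_mem_normalizer_complement Q L K
    (by haveI := hQp.isNilpotent; infer_instance) hKQ hKcop
  -- a `p`-element of the normalizer outside `Q`
  obtain ⟨x, hxN, hxQ, k, hxk⟩ : ∃ x ∈ Subgroup.normalizer (K : Set G), x ∉ Q ∧
      ∃ k : ℕ, orderOf x = p ^ k := by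
    obtain ⟨y', hy'⟩ := exists_prime_orderOf_dvd_card' (G := G ⧸ Q) p hidx
    obtain ⟨y, rfl⟩ := QuotientGroup.mk_surjective y'
    obtain ⟨q, hq, hqy⟩ := hfr y
    set w := q * y with hw
    have hwy : (w : G ⧸ Q) = (y : G ⧸ Q) := by
      rw [hw, QuotientGroup.mk_mul, (QuotientGroup.eq_one_iff q).2 hq, one_mul]
    obtain ⟨k, m, hm, hwm⟩ := Nat.exists_eq_pow_mul_and_not_dvd (orderOf_pos w).ne' p hp.out.ne_one
    have hm0 : m ≠ 0 := by rintro rfl; exact hm (dvd_zero p)
    refine ⟨w ^ m, pow_mem hqy m, fun h => ?_, k, ?_⟩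
    · have h1 : ((y : G ⧸ Q)) ^ m = 1 := by
        rw [← hwy, ← QuotientGroup.mk_pow]; exact (QuotientGroup.eq_one_iff _).2 h
      exact hm (hy' ▸ orderOf_dvd_of_pow_eq_one h1)
    · rw [orderOf_pow_of_dvd hm0 (hwm ▸ dvd_mul_left m _), hwm,
        Nat.mul_div_cancel _ (Nat.pos_of_ne_zero hm0)]
  -- its power of order `p` centralizes `L`
  obtain ⟨z, hz, hzK, hzQ⟩ : ∃ z : G, orderOf z = p ∧ z ∈ Subgroup.normalizer (K : Set G) ∧ z ∈ Q := by
    obtain ⟨k, rfl⟩ : ∃ j, k = j + 1 := Nat.exists_eq_succ_of_ne_zero fun h => by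
      rw [h, pow_zero, orderOf_eq_one_iff] at hxk
      exact hxQ (hxk ▸ one_mem Q)
    have ho : orderOf (x ^ p ^ k) = p := by
      rw [orderOf_pow_of_dvd (pow_ne_zero _ hp.out.ne_zero) (hxk ▸ pow_dvd_pow p (Nat.le_succ k)),
        hxk, pow_succ, Nat.mul_div_cancel_left _ (pow_pos hp.out.pos k)]
    exact ⟨_, ho, pow_mem hxN _, (hsmall _ (by
      have h := pow_orderOf_eq_one (x ^ p ^ k)
      rwa [ho] at h)).1⟩
  have hzC : z ∈ Subgroup.centralizer (L : Set G) := by
    rw [← hKQ, Subgroup.mem_centralizer_iff]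
    intro l hl
    have hle : K ⊔ Q ≤ Subgroup.centralizer {z} := sup_le
      (fun c hc => Subgroup.mem_centralizer_singleton_iff.2 (by
        have h1 : z * c * z⁻¹ ∈ K := (Subgroup.mem_normalizer_iff.1 hzK c).1 hc
        have h2 : z * c * z⁻¹ * c⁻¹ ∈ K := mul_mem h1 (inv_mem hc)
        have h3 : z * c * z⁻¹ * c⁻¹ ∈ Q := by
          have : z * c * z⁻¹ * c⁻¹ = z * (c * z⁻¹ * c⁻¹) := by group
          rw [this]
          exact mul_mem hzQ (Subgroup.Normal.conj_mem inferInstance _ (inv_mem hzQ) c)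
        have h4 : z * c * z⁻¹ * c⁻¹ = 1 := Subgroup.mem_bot.1
          (Subgroup.inf_eq_bot_of_coprime hKcop ▸ Subgroup.mem_inf.2 ⟨h2, h3⟩)
        rw [mul_inv_eq_one, mul_inv_eq_iff_eq_mul] at h4
        exact h4.symm))
      (fun c hc => Subgroup.mem_centralizer_singleton_iff.2
        (Subgroup.mem_centralizer_iff.1 (hsmall z (by rw [← hz]; exact pow_orderOf_eq_one z)).2 c hc))
    exact Subgroup.mem_centralizer_singleton_iff.1 (hle hl)
  refine hLQ fun l hl => hC l fun y hy => ?_
  exact Subgroup.mem_centralizer_iff.1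
    (mem_of_invariant htrans _ (fun a => map_centralizer_le a (hLa a)) z hz hzC y hy) l hl

/-- The transitivity hypothesis passes to the quotient by the `p'`-core. -/
theorem transitive_quotient
    (htrans : ∀ U V : Subgroup G, Nat.card U = p → Nat.card V = p →
      ∃ a : MulAut G, U.map a.toMonoidHom = V) :
    ∀ U V : Subgroup (G ⧸ pPrimeCore p G), Nat.card U = p → Nat.card V = p →
      ∃ a : MulAut (G ⧸ pPrimeCore p G), U.map a.toMonoidHom = V := by
  set R := pPrimeCore p G with hR
  intro U V hU hV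
  have lift : ∀ W : Subgroup (G ⧸ R), Nat.card W = p →
      ∃ X : Subgroup G, Nat.card X = p ∧ X.map (QuotientGroup.mk' R) = W := by
    intro W hW
    have hd : p ∣ Nat.card (W.comap (QuotientGroup.mk' R)) := by
      have h1 := Subgroup.card_map_dvd (W.comap (QuotientGroup.mk' R)) (QuotientGroup.mk' R)
      rwa [Subgroup.map_comap_eq_self_of_surjective (QuotientGroup.mk'_surjective R), hW] at h1
    obtain ⟨u, hu⟩ := exists_prime_orderOf_dvd_card' p hd
    refine ⟨Subgroup.zpowers (u : G), by rw [Nat.card_zpowers, Subgroup.orderOf_coe, hu], ?_⟩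
    rw [MonoidHom.map_zpowers]
    refine Subgroup.eq_of_le_of_card_ge (Subgroup.zpowers_le.2 u.2) ?_
    rw [hW, Nat.card_zpowers]
    have hne : QuotientGroup.mk' R (u : G) ≠ 1 := fun h => by
      have h1 : (u : G) ∈ R := (QuotientGroup.eq_one_iff _).1 h
      have h2 : orderOf (u : G) ∣ Nat.card R := R.orderOf_dvd_natCard h1
      rw [Subgroup.orderOf_coe, hu] at h2
      exact pPrimeCore_not_dvd h2
    have hup : (u : G) ^ p = 1 := orderOf_dvd_iff_pow_eq_one.1 (by rw [Subgroup.orderOf_coe, hu])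
    exact (orderOf_eq_prime (by rw [← map_pow, hup, map_one]) hne).ge
  obtain ⟨X, hX, rfl⟩ := lift U hU
  obtain ⟨Y, hY, rfl⟩ := lift V hV
  obtain ⟨a, ha⟩ := htrans X Y hX hY
  refine ⟨QuotientGroup.congr R R a (Subgroup.characteristic_iff_map_eq.1 inferInstance a), ?_⟩
  rw [← ha, Subgroup.map_map, Subgroup.map_map]
  rfl

/-- **Gaschütz–Yen**. -/
theorem pLengthLE_one (hp2 : p ≠ 2) (hdvd : p ∣ Nat.card G) (hG : IsPSolvable p G)
    (htrans : ∀ U V : Subgroup G, Nat.card U = p → Nat.card V = p →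
      ∃ a : MulAut G, U.map a.toMonoidHom = V) :
    PLengthLE p 1 G := by
  have hdvd' : p ∣ Nat.card (G ⧸ pPrimeCore p G) := by
    rw [Subgroup.card_eq_card_quotient_mul_card_subgroup (pPrimeCore p G)] at hdvd
    exact (hp.out.dvd_mul.1 hdvd).resolve_right pPrimeCore_not_dvd
  have h := not_dvd_index_pCore hp2 hdvd' (IsPSolvable.quotient hG _)
    pPrimeCore_quotient_pPrimeCore (transitive_quotient htrans)
  show (upperPSeries p G 3).1 = ⊤
  refine top_unique (le_upperPSeries_succ_of_even (n := 2) even_two inferInstance ?_)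
  rw [Subgroup.relIndex_top_right, upperPSeries_two_eq]
  rwa [pPrimePCore, Subgroup.index_comap_of_surjective _ (QuotientGroup.mk'_surjective _)]

end CfsgLib.GaschuetzYen
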